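import Mathlib

set_option autoImplicit false

namespace Cfsg.Agent.Lib.Helper27.D8Cfg

variable {L : Type*} [Group L]

/-- Elementwise hypotheses on the pair `(R, z)`. -/
structure Hyp (R : Subgroup L) (z : L) : Prop where
  z1 : z ≠ 1
  zz : z * z = 1
  mem : ∀ x, x ∈ R ↔ z * x = x * z
  comm : ∀ x ∈ R, ∀ y ∈ R, x * y * x⁻¹ * y⁻¹ = 1 ∨ x * y * x⁻¹ * y⁻¹ = z
  sq : ∀ x ∈ R, x * x = 1 ∨ x * x = z
  self : ∀ g, (∀ x ∈ R, g * x * g⁻¹ ∈ R) → g ∈ R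
  fus : ∀ c ∈ R, (∀ x ∈ R, c * x = x * c) → ∀ g, g * c * g⁻¹ ∈ R →
    (∀ x ∈ R, (g * c * g⁻¹) * x = x * (g * c * g⁻¹)) → g * c * g⁻¹ = c

theorem mem_zpowers_two {G : Type*} [Group G] {u x : G} (huu : u * u = 1)
    (hx : x ∈ Subgroup.zpowers u) : x = 1 ∨ x = u := by
  obtain ⟨k, rfl⟩ := Subgroup.mem_zpowers_iff.1 hx
  rcases Int.even_or_odd' k with ⟨m, rfl | rfl⟩
  · left
    rw [zpow_mul, zpow_two, huu, one_zpow]
  · right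
    rw [zpow_add_one, zpow_mul, zpow_two, huu, one_zpow, one_mul]

theorem Hyp.zR {R : Subgroup L} {z : L} (hH : Hyp R z) : z ∈ R := (hH.mem z).2 rfl

theorem Hyp.conj_cases {R : Subgroup L} {z : L} (hH : Hyp R z) {x y : L} (hx : x ∈ R)
    (hy : y ∈ R) : x * y * x⁻¹ = y ∨ x * y * x⁻¹ = z * y := by
  rcases hH.comm x hx y hy with e | e
  · left
    calc x * y * x⁻¹ = x * y * x⁻¹ * y⁻¹ * y := by group
      _ = y := by rw [e, one_mul]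
  · right
    calc x * y * x⁻¹ = x * y * x⁻¹ * y⁻¹ * y := by group
      _ = z * y := by rw [e]

/-- The centralizer in `R` of `z'`. -/
def Ecfg (R : Subgroup L) (z' : L) : Subgroup L := R ⊓ Subgroup.centralizer {z'}

theorem mem_Ecfg {R : Subgroup L} {z' x : L} :
    x ∈ Ecfg R z' ↔ x ∈ R ∧ z' * x = x * z' := by
  unfold Ecfg
  rw [Subgroup.mem_inf, Subgroup.mem_centralizer_iff]
  simp

theorem Hyp.comm_conj_iff {R : Subgroup L} {z : L} (hH : Hyp R z) (h x : L) :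
    (h * z * h⁻¹) * x = x * (h * z * h⁻¹) ↔ h⁻¹ * x * h ∈ R := by
  rw [hH.mem]
  constructor
  · intro e
    calc z * (h⁻¹ * x * h) = h⁻¹ * ((h * z * h⁻¹) * x) * h := by group
      _ = h⁻¹ * (x * (h * z * h⁻¹)) * h := by rw [e]
      _ = h⁻¹ * x * h * z := by group
  · intro e
    calc (h * z * h⁻¹) * x = h * (z * (h⁻¹ * x * h)) * h⁻¹ := by group
      _ = h * (h⁻¹ * x * h * z) * h⁻¹ := by rw [e]
      _ = x * (h * z * h⁻¹) := by group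

section cfg

variable {R : Subgroup L} {z : L} (hH : Hyp R z) {h : L}

include hH

theorem cfg_comm (hne : h * z * h⁻¹ ≠ z) {x y : L} (hx : x ∈ Ecfg R (h * z * h⁻¹))
    (hy : y ∈ Ecfg R (h * z * h⁻¹)) : x * y = y * x := by
  rw [mem_Ecfg] at hx hy
  have hx' := (hH.comm_conj_iff h x).1 hx.2
  have hy' := (hH.comm_conj_iff h y).1 hy.2
  have e1 := hH.comm x hx.1 y hy.1
  have e2 := hH.comm _ hx' _ hy'
  have e3 : h * ((h⁻¹ * x * h) * (h⁻¹ * y * h) * (h⁻¹ * x * h)⁻¹ * (h⁻¹ * y * h)⁻¹) * h⁻¹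
      = x * y * x⁻¹ * y⁻¹ := by group
  have key : x * y * x⁻¹ * y⁻¹ = 1 := by
    rcases e1 with e1 | e1
    · exact e1
    · rcases e2 with e2 | e2
      · rw [← e3, e2]; group
      · exfalso
        apply hne
        calc h * z * h⁻¹
            = h * ((h⁻¹ * x * h) * (h⁻¹ * y * h) * (h⁻¹ * x * h)⁻¹ * (h⁻¹ * y * h)⁻¹) * h⁻¹ := by
              rw [e2]
          _ = x * y * x⁻¹ * y⁻¹ := e3
          _ = z := e1
  calc x * y = (x * y * x⁻¹ * y⁻¹) * (y * x) := by group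
    _ = y * x := by rw [key, one_mul]

theorem cfg_sq (hne : h * z * h⁻¹ ≠ z) {x : L} (hx : x ∈ Ecfg R (h * z * h⁻¹)) : x * x = 1 := by
  rw [mem_Ecfg] at hx
  have hx' := (hH.comm_conj_iff h x).1 hx.2
  rcases hH.sq x hx.1 with e1 | e1
  · exact e1
  · rcases hH.sq _ hx' with e2 | e2
    · calc x * x = h * ((h⁻¹ * x * h) * (h⁻¹ * x * h)) * h⁻¹ := by group
        _ = 1 := by rw [e2]; group
    · exfalso
      apply hne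
      calc h * z * h⁻¹ = h * ((h⁻¹ * x * h) * (h⁻¹ * x * h)) * h⁻¹ := by rw [e2]
        _ = x * x := by group
        _ = z := e1

theorem cfg_z_mem (hzR : h * z * h⁻¹ ∈ R) : z ∈ Ecfg R (h * z * h⁻¹) :=
  mem_Ecfg.2 ⟨hH.zR, ((hH.mem _).1 hzR).symm⟩

omit hH in
theorem cfg_z'_mem (hzR : h * z * h⁻¹ ∈ R) : h * z * h⁻¹ ∈ Ecfg R (h * z * h⁻¹) :=
  mem_Ecfg.2 ⟨hzR, rfl⟩

theorem cfg_exists_t (hzR : h * z * h⁻¹ ∈ R) (hne : h * z * h⁻¹ ≠ z) :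
    ∃ t ∈ R, t ∉ Ecfg R (h * z * h⁻¹) := by
  by_contra hno
  push Not at hno
  apply hne
  refine hH.fus z hH.zR (fun x hx => (hH.mem x).1 hx) h hzR (fun x hx => ?_)
  exact (mem_Ecfg.1 (hno x hx)).2

theorem cfg_t_conj (hzR : h * z * h⁻¹ ∈ R) {t : L} (ht : t ∈ R)
    (htE : t ∉ Ecfg R (h * z * h⁻¹)) : t * (h * z * h⁻¹) * t⁻¹ = z * (h * z * h⁻¹) := by
  rcases hH.conj_cases ht hzR with e | e
  · exfalso
    apply htE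
    refine mem_Ecfg.2 ⟨ht, ?_⟩
    calc (h * z * h⁻¹) * t = (t * (h * z * h⁻¹) * t⁻¹) * t := by rw [e]
      _ = t * (h * z * h⁻¹) := by group
  · exact e

theorem cfg_index (hzR : h * z * h⁻¹ ∈ R) {x y : L} (hx : x ∈ R)
    (hxE : x ∉ Ecfg R (h * z * h⁻¹)) (hy : y ∈ R) (hyE : y ∉ Ecfg R (h * z * h⁻¹)) :
    x⁻¹ * y ∈ Ecfg R (h * z * h⁻¹) := by
  have ex := cfg_t_conj hH hzR hx hxE
  have ey := cfg_t_conj hH hzR hy hyE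
  refine mem_Ecfg.2 ⟨R.mul_mem (R.inv_mem hx) hy, ?_⟩
  have e : y * (h * z * h⁻¹) * y⁻¹ = x * (h * z * h⁻¹) * x⁻¹ := by rw [ex, ey]
  calc (h * z * h⁻¹) * (x⁻¹ * y) = x⁻¹ * (x * (h * z * h⁻¹) * x⁻¹) * y := by group
    _ = x⁻¹ * (y * (h * z * h⁻¹) * y⁻¹) * y := by rw [e]
    _ = (x⁻¹ * y) * (h * z * h⁻¹) := by group

theorem cfg_conj_mem (hzR : h * z * h⁻¹ ∈ R) {x e : L} (hx : x ∈ R)
    (he : e ∈ Ecfg R (h * z * h⁻¹)) : x * e * x⁻¹ ∈ Ecfg R (h * z * h⁻¹) := by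
  rw [mem_Ecfg] at he ⊢
  refine ⟨R.mul_mem (R.mul_mem hx he.1) (R.inv_mem hx), ?_⟩
  have hc : (x⁻¹ * (h * z * h⁻¹) * x) * e = e * (x⁻¹ * (h * z * h⁻¹) * x) := by
    rcases hH.conj_cases (R.inv_mem hx) hzR with e1 | e1
    · rw [inv_inv] at e1
      rw [e1]
      exact he.2
    · rw [inv_inv] at e1
      rw [e1]
      calc z * (h * z * h⁻¹) * e = z * ((h * z * h⁻¹) * e) := by group
        _ = z * (e * (h * z * h⁻¹)) := by rw [he.2]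
        _ = (z * e) * (h * z * h⁻¹) := by group
        _ = (e * z) * (h * z * h⁻¹) := by rw [(hH.mem e).1 he.1]
        _ = e * (z * (h * z * h⁻¹)) := by group
  calc (h * z * h⁻¹) * (x * e * x⁻¹) = x * ((x⁻¹ * (h * z * h⁻¹) * x) * e) * x⁻¹ := by group
    _ = x * (e * (x⁻¹ * (h * z * h⁻¹) * x)) * x⁻¹ := by rw [hc]
    _ = (x * e * x⁻¹) * (h * z * h⁻¹) := by group

theorem cfg_R_le_normalizer (hzR : h * z * h⁻¹ ∈ R) :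
    R ≤ Subgroup.normalizer (Ecfg R (h * z * h⁻¹) : Set L) := by
  intro x hx
  rw [Subgroup.mem_normalizer_iff]
  intro e
  refine ⟨fun he => cfg_conj_mem hH hzR hx he, fun he => ?_⟩
  have := cfg_conj_mem hH hzR (R.inv_mem hx) he
  have e2 : x⁻¹ * (x * e * x⁻¹) * x⁻¹⁻¹ = e := by group
  rwa [e2] at this

theorem cfg_swap (h x : L) :
    x ∈ Ecfg R (h * z * h⁻¹) ↔ h⁻¹ * x * h ∈ Ecfg R (h⁻¹ * z * h⁻¹⁻¹) := by
  rw [mem_Ecfg, mem_Ecfg, hH.comm_conj_iff h x, hH.comm_conj_iff h⁻¹ (h⁻¹ * x * h)]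
  have e : h⁻¹⁻¹ * (h⁻¹ * x * h) * h⁻¹ = x := by group
  rw [e]
  exact and_comm

theorem cfg_inv_mem (hzR : h * z * h⁻¹ ∈ R) : h⁻¹ * z * h⁻¹⁻¹ ∈ R := by
  rw [inv_inv]
  exact (hH.comm_conj_iff h z).1 ((hH.mem _).1 hzR).symm

theorem cfg_cen_conj_mem (hzR : h * z * h⁻¹ ∈ R) {x e : L}
    (hx : (h * z * h⁻¹) * x = x * (h * z * h⁻¹)) (he : e ∈ Ecfg R (h * z * h⁻¹)) :
    x * e * x⁻¹ ∈ Ecfg R (h * z * h⁻¹) := by
  rw [cfg_swap hH h] at he ⊢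
  have hx' := (hH.comm_conj_iff h x).1 hx
  have := cfg_conj_mem hH (cfg_inv_mem hH hzR) hx' he
  have e2 : h⁻¹ * x * h * (h⁻¹ * e * h) * (h⁻¹ * x * h)⁻¹ = h⁻¹ * (x * e * x⁻¹) * h := by group
  rwa [e2] at this

theorem cfg_cen_le_normalizer (hzR : h * z * h⁻¹ ∈ R) {x : L}
    (hx : (h * z * h⁻¹) * x = x * (h * z * h⁻¹)) :
    x ∈ Subgroup.normalizer (Ecfg R (h * z * h⁻¹) : Set L) := by
  have hxi : (h * z * h⁻¹) * x⁻¹ = x⁻¹ * (h * z * h⁻¹) := by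
    calc (h * z * h⁻¹) * x⁻¹ = x⁻¹ * (x * (h * z * h⁻¹)) * x⁻¹ := by group
      _ = x⁻¹ * ((h * z * h⁻¹) * x) * x⁻¹ := by rw [hx]
      _ = x⁻¹ * (h * z * h⁻¹) := by group
  rw [Subgroup.mem_normalizer_iff]
  intro e
  refine ⟨fun he => cfg_cen_conj_mem hH hzR hx he, fun he => ?_⟩
  have := cfg_cen_conj_mem hH hzR hxi he
  have e2 : x⁻¹ * (x * e * x⁻¹) * x⁻¹⁻¹ = e := by group
  rwa [e2] at this

theorem cfg_central (hzR : h * z * h⁻¹ ∈ R) (hne : h * z * h⁻¹ ≠ z) {t : L} (ht : t ∈ R)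
    (htE : t ∉ Ecfg R (h * z * h⁻¹)) {e : L} (he : e ∈ Ecfg R (h * z * h⁻¹))
    (hte : t * e * t⁻¹ = e) : ∀ y ∈ R, e * y = y * e := by
  intro y hy
  by_cases hyE : y ∈ Ecfg R (h * z * h⁻¹)
  · exact cfg_comm hH hne he hyE
  · have h1 := cfg_index hH hzR ht htE hy hyE
    have h2 := cfg_comm hH hne he h1
    have h3 : e * t = t * e := by
      calc e * t = (t * e * t⁻¹) * t := by rw [hte]
        _ = t * e := by group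
    calc e * y = e * t * (t⁻¹ * y) := by group
      _ = t * e * (t⁻¹ * y) := by rw [h3]
      _ = t * (e * (t⁻¹ * y)) := by group
      _ = t * ((t⁻¹ * y) * e) := by rw [h2]
      _ = y * e := by group

theorem cfg_relIndex (hzR : h * z * h⁻¹ ∈ R) (hne : h * z * h⁻¹ ≠ z) :
    (Ecfg R (h * z * h⁻¹)).relIndex R = 2 := by
  obtain ⟨t, ht, htE⟩ := cfg_exists_t hH hzR hne
  show ((Ecfg R (h * z * h⁻¹)).subgroupOf R).index = 2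
  rw [Subgroup.index_eq_two_iff]
  refine ⟨⟨t, ht⟩, fun b => ?_⟩
  by_cases hb : (b : L) ∈ Ecfg R (h * z * h⁻¹)
  · right
    refine ⟨Subgroup.mem_subgroupOf.2 hb, fun hbt => ?_⟩
    have hbt' : (b : L) * t ∈ Ecfg R (h * z * h⁻¹) := Subgroup.mem_subgroupOf.1 hbt
    apply htE
    have := (Ecfg R (h * z * h⁻¹)).mul_mem ((Ecfg R (h * z * h⁻¹)).inv_mem hb) hbt'
    rwa [inv_mul_cancel_left] at this
  · left
    refine ⟨Subgroup.mem_subgroupOf.2 ?_, fun hb' => hb (Subgroup.mem_subgroupOf.1 hb')⟩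
    have hbi : (b : L)⁻¹ ∉ Ecfg R (h * z * h⁻¹) := fun hbi =>
      hb (by simpa using (Ecfg R (h * z * h⁻¹)).inv_mem hbi)
    have := cfg_index hH hzR (R.inv_mem b.2) hbi ht htE
    rwa [inv_inv] at this

theorem cfg_le_eq {h₁ h₂ : L} (h1R : h₁ * z * h₁⁻¹ ∈ R) (h2R : h₂ * z * h₂⁻¹ ∈ R)
    (h2ne : h₂ * z * h₂⁻¹ ≠ z)
    (hle : Ecfg R (h₁ * z * h₁⁻¹) ≤ Ecfg R (h₂ * z * h₂⁻¹)) :
    Ecfg R (h₁ * z * h₁⁻¹) = Ecfg R (h₂ * z * h₂⁻¹) := by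
  refine le_antisymm hle (fun x hx => ?_)
  by_contra hx1
  obtain ⟨y, hy, hyE⟩ := cfg_exists_t hH h2R h2ne
  have hy1 : y ∉ Ecfg R (h₁ * z * h₁⁻¹) := fun h => hyE (hle h)
  have := hle (cfg_index hH h1R (mem_Ecfg.1 hx).1 hx1 hy hy1)
  apply hyE
  have h3 := (Ecfg R (h₂ * z * h₂⁻¹)).mul_mem hx this
  rwa [mul_inv_cancel_left] at h3

theorem cfg_eq_of_mem {h₁ h₂ : L} (h1R : h₁ * z * h₁⁻¹ ∈ R) (h1ne : h₁ * z * h₁⁻¹ ≠ z)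
    (h2R : h₂ * z * h₂⁻¹ ∈ R) (h2ne : h₂ * z * h₂⁻¹ ≠ z)
    (hmem : h₂ * z * h₂⁻¹ ∈ Ecfg R (h₁ * z * h₁⁻¹)) :
    Ecfg R (h₁ * z * h₁⁻¹) = Ecfg R (h₂ * z * h₂⁻¹) :=
  cfg_le_eq hH h1R h2R h2ne
    (fun x hx => mem_Ecfg.2 ⟨(mem_Ecfg.1 hx).1, cfg_comm hH h1ne hmem hx⟩)

theorem cfg_unique {h₀ h₁ h₂ : L} (h0R : h₀ * z * h₀⁻¹ ∈ R) (h0ne : h₀ * z * h₀⁻¹ ≠ z)
    (h1R : h₁ * z * h₁⁻¹ ∈ R) (h1ne : h₁ * z * h₁⁻¹ ≠ z)
    (h2R : h₂ * z * h₂⁻¹ ∈ R) (h2ne : h₂ * z * h₂⁻¹ ≠ z)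
    (hne1 : Ecfg R (h₁ * z * h₁⁻¹) ≠ Ecfg R (h₀ * z * h₀⁻¹))
    (hne2 : Ecfg R (h₂ * z * h₂⁻¹) ≠ Ecfg R (h₀ * z * h₀⁻¹)) :
    Ecfg R (h₁ * z * h₁⁻¹) = Ecfg R (h₂ * z * h₂⁻¹) := by
  have hz1 : h₁ * z * h₁⁻¹ ∉ Ecfg R (h₀ * z * h₀⁻¹) := fun hm =>
    hne1 (cfg_eq_of_mem hH h0R h0ne h1R h1ne hm).symm
  have hz2 : h₂ * z * h₂⁻¹ ∉ Ecfg R (h₀ * z * h₀⁻¹) := fun hm =>
    hne2 (cfg_eq_of_mem hH h0R h0ne h2R h2ne hm).symm
  have hd := cfg_index hH h0R h1R hz1 h2R hz2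
  have hdd := cfg_sq hH h0ne hd
  have e1 : (h₁ * z * h₁⁻¹) * (h₁ * z * h₁⁻¹) = 1 := by
    calc (h₁ * z * h₁⁻¹) * (h₁ * z * h₁⁻¹) = h₁ * (z * z) * h₁⁻¹ := by group
      _ = 1 := by rw [hH.zz]; group
  have e2 : (h₂ * z * h₂⁻¹) * (h₂ * z * h₂⁻¹) = 1 := by
    calc (h₂ * z * h₂⁻¹) * (h₂ * z * h₂⁻¹) = h₂ * (z * z) * h₂⁻¹ := by group
      _ = 1 := by rw [hH.zz]; group
  have i1 : (h₁ * z * h₁⁻¹)⁻¹ = h₁ * z * h₁⁻¹ := inv_eq_of_mul_eq_one_right e1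
  have i2 : (h₂ * z * h₂⁻¹)⁻¹ = h₂ * z * h₂⁻¹ := inv_eq_of_mul_eq_one_right e2
  have hcomm : (h₁ * z * h₁⁻¹) * (h₂ * z * h₂⁻¹) = (h₂ * z * h₂⁻¹) * (h₁ * z * h₁⁻¹) := by
    rw [i1] at hdd
    have := inv_eq_of_mul_eq_one_right hdd
    rw [mul_inv_rev, i1, i2] at this
    exact this.symm
  exact cfg_eq_of_mem hH h1R h1ne h2R h2ne (mem_Ecfg.2 ⟨h2R, hcomm⟩)

end cfg

/-- Fixed by the whole normalizer. -/
def isY (E : Subgroup L) (x : L) : Prop :=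
  x ∈ E ∧ ∀ n ∈ Subgroup.normalizer (E : Set L), n * x * n⁻¹ = x

/-- Generated by the normalizer-conjugates of `z`. -/
def Wz (z : L) (E : Subgroup L) : Subgroup L :=
  Subgroup.closure {y | ∃ n ∈ Subgroup.normalizer (E : Set L), y = n * z * n⁻¹}

theorem isY_mul {E : Subgroup L} {x y : L} (hx : isY E x) (hy : isY E y) : isY E (x * y) :=
  ⟨E.mul_mem hx.1 hy.1, fun n hn => by
    calc n * (x * y) * n⁻¹ = (n * x * n⁻¹) * (n * y * n⁻¹) := by group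
      _ = x * y := by rw [hx.2 n hn, hy.2 n hn]⟩

theorem isY_inv {E : Subgroup L} {x : L} (hx : isY E x) : isY E x⁻¹ :=
  ⟨E.inv_mem hx.1, fun n hn => by
    calc n * x⁻¹ * n⁻¹ = (n * x * n⁻¹)⁻¹ := by group
      _ = x⁻¹ := by rw [hx.2 n hn]⟩

/-- The union of `Q` and the coset `xQ`, a subgroup when `x` normalizes `Q` and `x²∈Q`. -/
def cosetSub (Q : Subgroup L) (x : L) (hn : ∀ q ∈ Q, x⁻¹ * q * x ∈ Q) (hxx : x * x ∈ Q) :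
    Subgroup L where
  carrier := {y | y ∈ Q ∨ x⁻¹ * y ∈ Q}
  one_mem' := Or.inl Q.one_mem
  mul_mem' := by
    rintro a b (ha | ha) (hb | hb)
    · exact Or.inl (Q.mul_mem ha hb)
    · right
      have : x⁻¹ * (a * b) = (x⁻¹ * a * x) * (x⁻¹ * b) := by group
      rw [this]
      exact Q.mul_mem (hn a ha) hb
    · right
      have : x⁻¹ * (a * b) = (x⁻¹ * a) * b := by group
      rw [this]
      exact Q.mul_mem ha hb
    · left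
      have : a * b = (x * x) * (x⁻¹ * (x⁻¹ * a) * x) * (x⁻¹ * b) := by group
      rw [this]
      exact Q.mul_mem (Q.mul_mem hxx (hn _ ha)) hb
  inv_mem' := by
    rintro a (ha | ha)
    · exact Or.inl (Q.inv_mem ha)
    · right
      have : x⁻¹ * a⁻¹ = (x⁻¹ * (x⁻¹ * a)⁻¹ * x) * (x * x)⁻¹ := by group
      rw [this]
      exact Q.mul_mem (hn _ (Q.inv_mem ha)) (Q.inv_mem hxx)

theorem max_sub [Finite L] {R : Subgroup L} {z : L} (hH : Hyp R z) (X₀ : Subgroup L)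
    (hX₀R : X₀ ≤ R) (hzX : z ∈ X₀) {c : L} (hcX : c ∉ X₀) :
    ∃ Q : Subgroup L, Q ≤ R ∧ X₀ ≤ Q ∧ c ∉ Q ∧ ∀ x ∈ R, x ∉ Q → x⁻¹ * c ∈ Q := by
  classical
  obtain ⟨Q, hQ⟩ := Set.Finite.exists_maximal
    (s := {Q : Subgroup L | X₀ ≤ Q ∧ Q ≤ R ∧ c ∉ Q}) (Set.toFinite _) ⟨X₀, le_rfl, hX₀R, hcX⟩
  obtain ⟨⟨hXQ, hQR, hcQ⟩, hmax⟩ := hQ
  refine ⟨Q, hQR, hXQ, hcQ, fun x hx hxQ => ?_⟩
  have hzQ : z ∈ Q := hXQ hzX
  have hnorm : ∀ y ∈ R, ∀ q ∈ Q, y * q * y⁻¹ ∈ Q := by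
    intro y hy q hq
    rcases hH.conj_cases hy (hQR hq) with e | e
    · rw [e]; exact hq
    · rw [e]; exact Q.mul_mem hzQ hq
  have hxx : x * x ∈ Q := by
    rcases hH.sq x hx with e | e
    · rw [e]; exact Q.one_mem
    · rw [e]; exact hzQ
  have hn : ∀ q ∈ Q, x⁻¹ * q * x ∈ Q := fun q hq => by
    have := hnorm x⁻¹ (R.inv_mem hx) q hq
    rwa [inv_inv] at this
  have hQ' : cosetSub Q x hn hxx ∉ {Q : Subgroup L | X₀ ≤ Q ∧ Q ≤ R ∧ c ∉ Q} := by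
    intro hmem
    have hle : Q ≤ cosetSub Q x hn hxx := fun q hq => Or.inl hq
    have := hmax hmem hle
    apply hxQ
    exact this (Or.inr (by rw [inv_mul_cancel]; exact Q.one_mem))
  by_contra hcx
  apply hQ'
  refine ⟨fun q hq => Or.inl (hXQ hq), ?_, ?_⟩
  · rintro y (hy | hy)
    · exact hQR hy
    · have := R.mul_mem hx (hQR hy)
      rwa [mul_inv_cancel_left] at this
  · rintro (h | h)
    · exact hcQ h
    · exact hcx h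

end Cfsg.Agent.Lib.Helper27.D8Cfg
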