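import Mathlib

set_option autoImplicit false

/-! Elementary facts on `2 × 2` matrices over a field used for odd-order subgroups of `GL₂`. -/

namespace Cfsg.Agent.Lib.Helper27.OddGL2

open Matrix

variable {K : Type*} [Field K]

theorem mv0 (M : Matrix (Fin 2) (Fin 2) K) (v : Fin 2 → K) :
    (M *ᵥ v) 0 = M 0 0 * v 0 + M 0 1 * v 1 := by
  simp [Matrix.mulVec, dotProduct, Fin.sum_univ_two]

theorem mv1 (M : Matrix (Fin 2) (Fin 2) K) (v : Fin 2 → K) :
    (M *ᵥ v) 1 = M 1 0 * v 0 + M 1 1 * v 1 := by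
  simp [Matrix.mulVec, dotProduct, Fin.sum_univ_two]

omit [Field K] in
theorem vec_ext {v w : Fin 2 → K} (h0 : v 0 = w 0) (h1 : v 1 = w 1) : v = w := by
  funext i
  fin_cases i
  · exact h0
  · exact h1

theorem eig_iff (M : Matrix (Fin 2) (Fin 2) K) (v : Fin 2 → K) (c : K) :
    M *ᵥ v = c • v ↔
      (M 0 0 * v 0 + M 0 1 * v 1 = c * v 0 ∧ M 1 0 * v 0 + M 1 1 * v 1 = c * v 1) := by
  constructor
  · intro h
    refine ⟨?_, ?_⟩
    · rw [← mv0, h]; rfl
    · rw [← mv1, h]; rfl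
  · rintro ⟨h0, h1⟩
    apply vec_ext
    · rw [mv0, h0]; rfl
    · rw [mv1, h1]; rfl

theorem vec_ne_zero {v : Fin 2 → K} (hv : v ≠ 0) : v 0 ≠ 0 ∨ v 1 ≠ 0 := by
  by_contra h
  push Not at h
  exact hv (vec_ext h.1 h.2)

/-- scalar matrices -/
def IsSc (M : Matrix (Fin 2) (Fin 2) K) : Prop := M 0 1 = 0 ∧ M 1 0 = 0 ∧ M 0 0 = M 1 1

theorem isSc_of_two_eig (M : Matrix (Fin 2) (Fin 2) K) (v w : Fin 2 → K) (l : K)
    (hv : M *ᵥ v = l • v) (hw : M *ᵥ w = l • w) (hd : v 0 * w 1 - v 1 * w 0 ≠ 0) : IsSc M := by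
  obtain ⟨h1, h2⟩ := (eig_iff M v l).mp hv
  obtain ⟨h3, h4⟩ := (eig_iff M w l).mp hw
  have e1 : M 0 1 * (v 0 * w 1 - v 1 * w 0) = 0 := by linear_combination v 0 * h3 - w 0 * h1
  have e2 : M 1 0 * (v 0 * w 1 - v 1 * w 0) = 0 := by linear_combination w 1 * h2 - v 1 * h4
  have e3 : (M 0 0 - l) * (v 0 * w 1 - v 1 * w 0) = 0 := by
    linear_combination w 1 * h1 - v 1 * h3
  have e4 : (M 1 1 - l) * (v 0 * w 1 - v 1 * w 0) = 0 := by
    linear_combination v 0 * h4 - w 0 * h2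
  refine ⟨?_, ?_, ?_⟩
  · exact (mul_eq_zero.mp e1).resolve_right hd
  · exact (mul_eq_zero.mp e2).resolve_right hd
  · have a := sub_eq_zero.mp ((mul_eq_zero.mp e3).resolve_right hd)
    have b := sub_eq_zero.mp ((mul_eq_zero.mp e4).resolve_right hd)
    rw [a, b]

theorem prop_of_det_zero {v w : Fin 2 → K} (hv : v ≠ 0) (hd : v 0 * w 1 - v 1 * w 0 = 0) :
    ∃ c : K, w = c • v := by
  by_cases h0 : v 0 = 0
  · have h1 : v 1 ≠ 0 := by
      rcases vec_ne_zero hv with h | h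
      · exact absurd h0 h
      · exact h
    have hw0 : w 0 = 0 := by
      rw [h0] at hd
      have : v 1 * w 0 = 0 := by linear_combination -hd
      exact (mul_eq_zero.mp this).resolve_left h1
    refine ⟨w 1 / v 1, vec_ext ?_ ?_⟩
    · show w 0 = w 1 / v 1 * v 0
      rw [hw0, h0, mul_zero]
    · show w 1 = w 1 / v 1 * v 1
      field_simp
  · refine ⟨w 0 / v 0, vec_ext ?_ ?_⟩
    · show w 0 = w 0 / v 0 * v 0
      field_simp
    · show w 1 = w 0 / v 0 * v 1
      field_simp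
      linear_combination hd

theorem eig_cases (M : Matrix (Fin 2) (Fin 2) K) (v w x : Fin 2 → K) (l m n : K)
    (hv : M *ᵥ v = l • v) (hw : M *ᵥ w = m • w) (hx : M *ᵥ x = n • x) (hlm : l ≠ m)
    (hd : v 0 * w 1 - v 1 * w 0 ≠ 0) : (∃ c : K, x = c • v) ∨ (∃ c : K, x = c • w) := by
  obtain ⟨h1, h2⟩ := (eig_iff M v l).mp hv
  obtain ⟨h3, h4⟩ := (eig_iff M w m).mp hw
  obtain ⟨h5, h6⟩ := (eig_iff M x n).mp hx
  obtain ⟨d, hdd⟩ : ∃ d : K, d = v 0 * w 1 - v 1 * w 0 := ⟨_, rfl⟩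
  rw [← hdd] at hd
  obtain ⟨a, ha⟩ : ∃ a : K, a = (x 0 * w 1 - x 1 * w 0) / d := ⟨_, rfl⟩
  obtain ⟨b, hb⟩ : ∃ b : K, b = (v 0 * x 1 - v 1 * x 0) / d := ⟨_, rfl⟩
  have hx0 : x 0 = a * v 0 + b * w 0 := by
    rw [ha, hb]; field_simp; rw [hdd]; ring
  have hx1 : x 1 = a * v 1 + b * w 1 := by
    rw [ha, hb]; field_simp; rw [hdd]; ring
  rw [hx0, hx1] at h5 h6
  have E0 : a * (l - n) * v 0 + b * (m - n) * w 0 = 0 := by
    linear_combination h5 - a * h1 - b * h3
  have E1 : a * (l - n) * v 1 + b * (m - n) * w 1 = 0 := by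
    linear_combination h6 - a * h2 - b * h4
  have F0 : a * (l - n) * d = 0 := by rw [hdd]; linear_combination w 1 * E0 - w 0 * E1
  have F1 : b * (m - n) * d = 0 := by rw [hdd]; linear_combination v 0 * E1 - v 1 * E0
  have G0 := (mul_eq_zero.mp F0).resolve_right hd
  have G1 := (mul_eq_zero.mp F1).resolve_right hd
  rcases mul_eq_zero.mp G0 with ha0 | hln
  · right
    refine ⟨b, vec_ext ?_ ?_⟩
    · show x 0 = b * w 0
      rw [hx0, ha0]; ring
    · show x 1 = b * w 1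
      rw [hx1, ha0]; ring
  · rcases mul_eq_zero.mp G1 with hb0 | hmn
    · left
      refine ⟨a, vec_ext ?_ ?_⟩
      · show x 0 = a * v 0
        rw [hx0, hb0]; ring
      · show x 1 = a * v 1
        rw [hx1, hb0]; ring
    · exact absurd ((sub_eq_zero.mp hln).trans (sub_eq_zero.mp hmn).symm) hlm

theorem mul00 (A B : Matrix (Fin 2) (Fin 2) K) : (A * B) 0 0 = A 0 0 * B 0 0 + A 0 1 * B 1 0 := by
  rw [Matrix.mul_apply, Fin.sum_univ_two]
theorem mul01 (A B : Matrix (Fin 2) (Fin 2) K) : (A * B) 0 1 = A 0 0 * B 0 1 + A 0 1 * B 1 1 := by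
  rw [Matrix.mul_apply, Fin.sum_univ_two]
theorem mul10 (A B : Matrix (Fin 2) (Fin 2) K) : (A * B) 1 0 = A 1 0 * B 0 0 + A 1 1 * B 1 0 := by
  rw [Matrix.mul_apply, Fin.sum_univ_two]
theorem mul11 (A B : Matrix (Fin 2) (Fin 2) K) : (A * B) 1 1 = A 1 0 * B 0 1 + A 1 1 * B 1 1 := by
  rw [Matrix.mul_apply, Fin.sum_univ_two]

omit [Field K] in
theorem mat_ext {A B : Matrix (Fin 2) (Fin 2) K} (h00 : A 0 0 = B 0 0) (h01 : A 0 1 = B 0 1)
    (h10 : A 1 0 = B 1 0) (h11 : A 1 1 = B 1 1) : A = B := by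
  ext i j
  fin_cases i <;> fin_cases j
  · exact h00
  · exact h01
  · exact h10
  · exact h11

/-- a matrix fixing a nonzero vector with determinant one is unipotent: its `p`-th power is one -/
theorem pow_eq_one_of_fix (p : ℕ) [CharP K p] (g : Matrix (Fin 2) (Fin 2) K) (v : Fin 2 → K)
    (hv : v ≠ 0) (hg : g *ᵥ v = v) (hdet : g.det = 1) : g ^ p = 1 := by
  have hg' : g *ᵥ v = (1 : K) • v := by rw [one_smul]; exact hg
  obtain ⟨h1, h2⟩ := (eig_iff g v 1).mp hg'
  rw [Matrix.det_fin_two] at hdet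
  have hD0 : (2 - (g 0 0 + g 1 1)) * v 0 = 0 := by
    linear_combination (g 1 1 - 1) * h1 - g 0 1 * h2 - v 0 * hdet
  have hD1 : (2 - (g 0 0 + g 1 1)) * v 1 = 0 := by
    linear_combination (g 0 0 - 1) * h2 - g 1 0 * h1 - v 1 * hdet
  have htr : g 0 0 + g 1 1 = 2 := by
    rcases vec_ne_zero hv with h | h
    · have := (mul_eq_zero.mp hD0).resolve_right h
      linear_combination -this
    · have := (mul_eq_zero.mp hD1).resolve_right h
      linear_combination -this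
  have hn2 : (g - 1) * (g - 1) = 0 := by
    apply mat_ext
    · rw [mul00]
      simp only [Matrix.sub_apply, Matrix.one_apply_eq, Matrix.zero_apply]
      rw [Matrix.one_apply_ne (show (0 : Fin 2) ≠ 1 by decide),
        Matrix.one_apply_ne (show (1 : Fin 2) ≠ 0 by decide)]
      linear_combination g 0 0 * htr - hdet
    · rw [mul01]
      simp only [Matrix.sub_apply, Matrix.one_apply_eq, Matrix.zero_apply]
      rw [Matrix.one_apply_ne (show (0 : Fin 2) ≠ 1 by decide)]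
      linear_combination g 0 1 * htr
    · rw [mul10]
      simp only [Matrix.sub_apply, Matrix.one_apply_eq, Matrix.zero_apply]
      rw [Matrix.one_apply_ne (show (1 : Fin 2) ≠ 0 by decide)]
      linear_combination g 1 0 * htr
    · rw [mul11]
      simp only [Matrix.sub_apply, Matrix.one_apply_eq, Matrix.zero_apply]
      rw [Matrix.one_apply_ne (show (0 : Fin 2) ≠ 1 by decide),
        Matrix.one_apply_ne (show (1 : Fin 2) ≠ 0 by decide)]
      linear_combination g 1 1 * htr - hdet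
  have hpow : ∀ k : ℕ, g ^ k = 1 + k • (g - 1) := by
    intro k
    induction k with
    | zero => simp
    | succ k ih =>
      rw [pow_succ, ih]
      have e : g = 1 + (g - 1) := by abel
      calc (1 + k • (g - 1)) * g = (1 + k • (g - 1)) * (1 + (g - 1)) := by rw [← e]
        _ = 1 + (g - 1) + k • (g - 1) + k • ((g - 1) * (g - 1)) := by
          rw [add_mul, mul_add, mul_add, one_mul, mul_one, one_mul, smul_mul_assoc]
          abel
        _ = 1 + (k + 1) • (g - 1) := by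
          rw [hn2, smul_zero, add_zero, add_smul, one_smul]; abel
  rw [hpow p]
  have hp0 : (p : ℕ) • (g - 1) = 0 := by
    rw [← Nat.cast_smul_eq_nsmul K, CharP.cast_eq_zero K p, zero_smul]
  rw [hp0, add_zero]

end Cfsg.Agent.Lib.Helper27.OddGL2
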