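import Mathlib
import Cfsg.Agent.Lib.Helper27.OddGL2A

set_option autoImplicit false

/-! Odd-order solvable subgroups of `GL₂(K)` (characteristic not two): they fix a line or are
abelian; hence their derived subgroup has exponent `p` when `K` has characteristic `p`. -/

namespace Cfsg.Agent.Lib.Helper27.OddGL2

open Matrix
open scoped commutatorElement

variable {K : Type*} [Field K]

omit [Field K] in
theorem vec2_0 (x y : K) : (![x, y] : Fin 2 → K) 0 = x := rfl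
omit [Field K] in
theorem vec2_1 (x y : K) : (![x, y] : Fin 2 → K) 1 = y := rfl

/-- `H` fixes a line -/
def FixL (H : Subgroup (GL (Fin 2) K)) : Prop :=
  ∃ v : Fin 2 → K, v ≠ 0 ∧ ∀ h ∈ H, ∃ c : K, h.1 *ᵥ v = c • v

theorem inv_mulVec (h : GL (Fin 2) K) (u : Fin 2 → K) : h⁻¹.1 *ᵥ (h.1 *ᵥ u) = u := by
  rw [Matrix.mulVec_mulVec, ← Units.val_mul, inv_mul_cancel, Units.val_one, Matrix.one_mulVec]

theorem mulVec_inj (h : GL (Fin 2) K) (u : Fin 2 → K) (hu : h.1 *ᵥ u = 0) : u = 0 := by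
  have := inv_mulVec h u
  rw [hu, Matrix.mulVec_zero] at this
  exact this.symm

theorem eig_ne_zero (h : GL (Fin 2) K) (v : Fin 2 → K) (hv : v ≠ 0) (c : K)
    (hc : h.1 *ᵥ v = c • v) : c ≠ 0 := by
  rintro rfl
  rw [zero_smul] at hc
  exact hv (mulVec_inj h v hc)

theorem inv_eig (h : GL (Fin 2) K) (v : Fin 2 → K) (hv : v ≠ 0) (c : K)
    (hc : h.1 *ᵥ v = c • v) : h⁻¹.1 *ᵥ v = c⁻¹ • v := by
  have h0 := eig_ne_zero h v hv c hc
  have h1 := inv_mulVec h v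
  rw [hc, Matrix.mulVec_smul] at h1
  rw [eq_inv_smul_iff₀ h0]
  exact h1

theorem mul_eig (g h : GL (Fin 2) K) (v : Fin 2 → K) (c e : K) (hg : g.1 *ᵥ v = c • v)
    (hh : h.1 *ᵥ v = e • v) : (g * h).1 *ᵥ v = (c * e) • v := by
  rw [Units.val_mul, ← Matrix.mulVec_mulVec, hh, Matrix.mulVec_smul, hg, smul_smul, mul_comm]

theorem det_inv_mul (x : GL (Fin 2) K) : x⁻¹.1.det * x.1.det = 1 := by
  rw [← Matrix.det_mul, ← Units.val_mul, inv_mul_cancel, Units.val_one, Matrix.det_one]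

theorem det_comm (x y : GL (Fin 2) K) : (⁅x, y⁆ : GL (Fin 2) K).1.det = 1 := by
  rw [commutatorElement_def, Units.val_mul, Units.val_mul, Units.val_mul, Matrix.det_mul,
    Matrix.det_mul, Matrix.det_mul]
  linear_combination (y⁻¹.1.det * y.1.det) * det_inv_mul x + det_inv_mul y

/-- the matrices of determinant one fixing `v` -/
def fixSub (v : Fin 2 → K) : Subgroup (GL (Fin 2) K) where
  carrier := {g | g.1 *ᵥ v = v ∧ g.1.det = 1}
  mul_mem' := by
    rintro a b ⟨ha, ha'⟩ ⟨hb, hb'⟩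
    refine ⟨?_, ?_⟩
    · rw [Units.val_mul, ← Matrix.mulVec_mulVec, hb, ha]
    · rw [Units.val_mul, Matrix.det_mul, ha', hb', mul_one]
  one_mem' := ⟨by rw [Units.val_one, Matrix.one_mulVec], by rw [Units.val_one, Matrix.det_one]⟩
  inv_mem' := by
    rintro a ⟨ha, ha'⟩
    refine ⟨?_, ?_⟩
    · have := inv_mulVec a v
      rw [ha] at this
      exact this
    · have := det_inv_mul a
      rw [ha', mul_one] at this
      exact this

theorem comm_exp_of_fixL (p : ℕ) [CharP K p] (H : Subgroup (GL (Fin 2) K)) (hfix : FixL H) :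
    ∀ z ∈ ⁅H, H⁆, z ^ p = 1 := by
  obtain ⟨v, hv, hfv⟩ := hfix
  have hle : ⁅H, H⁆ ≤ fixSub v := by
    rw [Subgroup.commutator_le]
    intro x hx y hy
    obtain ⟨c, hc⟩ := hfv x hx
    obtain ⟨e, he⟩ := hfv y hy
    have hc0 := eig_ne_zero x v hv c hc
    have he0 := eig_ne_zero y v hv e he
    show (⁅x, y⁆ : GL (Fin 2) K).1 *ᵥ v = v ∧ (⁅x, y⁆ : GL (Fin 2) K).1.det = 1
    refine ⟨?_, det_comm x y⟩
    rw [commutatorElement_def]
    have h1 := mul_eig (x * y * x⁻¹) y⁻¹ v _ _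
      (mul_eig (x * y) x⁻¹ v _ _ (mul_eig x y v c e hc he) (inv_eig x v hv c hc))
      (inv_eig y v hv e he)
    rw [h1]
    have : c * e * c⁻¹ * e⁻¹ = 1 := by field_simp
    rw [this, one_smul]
  intro z hz
  obtain ⟨h1, h2⟩ := hle hz
  apply Units.ext
  rw [Units.val_pow_eq_pow_val, Units.val_one]
  exact pow_eq_one_of_fix p z.1 v hv h1 h2

theorem comm_of_sc (h2 : (2 : K) ≠ 0) (H : Subgroup (GL (Fin 2) K)) (hodd : Odd (Nat.card H))
    (hsc : ∀ k ∈ ⁅H, H⁆, IsSc k.1) : ∀ x ∈ H, ∀ y ∈ H, x * y = y * x := by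
  intro x hx y hy
  rw [← commutatorElement_eq_one_iff_mul_comm]
  obtain ⟨z, hz⟩ : ∃ z, z = ⁅x, y⁆ := ⟨_, rfl⟩
  rw [← hz]
  have hzC : z ∈ ⁅H, H⁆ := by rw [hz]; exact Subgroup.commutator_mem_commutator hx hy
  have hzH : z ∈ H := by
    rw [hz, commutatorElement_def]
    exact H.mul_mem (H.mul_mem (H.mul_mem hx hy) (H.inv_mem hx)) (H.inv_mem hy)
  obtain ⟨s01, s10, s00⟩ := hsc z hzC
  have hdet : z.1.det = 1 := by rw [hz]; exact det_comm x y
  rw [Matrix.det_fin_two, s01, zero_mul, sub_zero, ← s00] at hdet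
  rcases mul_self_eq_one_iff.mp hdet with h1 | h1
  · apply Units.ext
    rw [Units.val_one]
    apply mat_ext
    · rw [h1, Matrix.one_apply_eq]
    · rw [s01, Matrix.one_apply_ne (by decide)]
    · rw [s10, Matrix.one_apply_ne (by decide)]
    · rw [← s00, h1, Matrix.one_apply_eq]
  · exfalso
    have hz2 : z ^ 2 = 1 := by
      apply Units.ext
      rw [Units.val_pow_eq_pow_val, Units.val_one, pow_two]
      apply mat_ext
      · rw [mul00, s01, zero_mul, add_zero, hdet, Matrix.one_apply_eq]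
      · rw [mul01, s01, mul_zero, zero_mul, add_zero, Matrix.one_apply_ne (by decide)]
      · rw [mul10, s10, zero_mul, mul_zero, add_zero, Matrix.one_apply_ne (by decide)]
      · rw [mul11, s10, zero_mul, zero_add, ← s00, hdet, Matrix.one_apply_eq]
    have hz1 : z ≠ 1 := by
      intro h
      have h3 : z.1 0 0 = 1 := by rw [h, Units.val_one, Matrix.one_apply_eq]
      rw [h1] at h3
      apply h2
      linear_combination -h3
    have : Fact (Nat.Prime 2) := ⟨Nat.prime_two⟩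
    have ho : orderOf z = 2 := orderOf_eq_prime hz2 hz1
    have hd : 2 ∣ Nat.card H := by
      have h5 := Subgroup.orderOf_dvd_natCard H hzH
      rw [ho] at h5
      exact h5
    exact (Nat.not_even_iff_odd.mpr hodd) (even_iff_two_dvd.mpr hd)

theorem fix_of_nonsc (H C : Subgroup (GL (Fin 2) K)) (hodd : Odd (Nat.card H))
    (hCnorm : ∀ h ∈ H, ∀ k ∈ C, h * k * h⁻¹ ∈ C) (v : Fin 2 → K) (hv : v ≠ 0)
    (hfv : ∀ k ∈ C, ∃ c : K, k.1 *ᵥ v = c • v) (a : GL (Fin 2) K) (haC : a ∈ C)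
    (hasc : ¬ IsSc a.1) : FixL H := by
  by_contra hnot
  have hex : ∃ h₀ ∈ H, ∀ c : K, h₀.1 *ᵥ v ≠ c • v := by
    by_contra hcon
    push Not at hcon
    exact hnot ⟨v, hv, hcon⟩
  obtain ⟨h₀, hh₀, hne⟩ := hex
  obtain ⟨w, hw⟩ : ∃ w, w = h₀.1 *ᵥ v := ⟨_, rfl⟩
  have hd : v 0 * w 1 - v 1 * w 0 ≠ 0 := by
    intro h
    obtain ⟨c, hc⟩ := prop_of_det_zero hv h
    exact hne c (by rw [← hw]; exact hc)
  have hprop : ∀ h ∈ H, ∀ x : Fin 2 → K, (∀ k ∈ C, ∃ c : K, k.1 *ᵥ x = c • x) →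
      ∀ k ∈ C, ∃ c : K, k.1 *ᵥ (h.1 *ᵥ x) = c • (h.1 *ᵥ x) := by
    intro h hh x hx k hk
    have hk' : h⁻¹ * k * h⁻¹⁻¹ ∈ C := hCnorm h⁻¹ (H.inv_mem hh) k hk
    obtain ⟨c, hc⟩ := hx _ hk'
    refine ⟨c, ?_⟩
    have e : k * h = h * (h⁻¹ * k * h⁻¹⁻¹) := by group
    rw [Matrix.mulVec_mulVec, ← Units.val_mul, e, Units.val_mul, ← Matrix.mulVec_mulVec, hc,
      Matrix.mulVec_smul]
  have hPw : ∀ k ∈ C, ∃ c : K, k.1 *ᵥ w = c • w := by rw [hw]; exact hprop h₀ hh₀ v hfv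
  have hPhw := hprop h₀ hh₀ w hPw
  obtain ⟨l, hl⟩ := hfv a haC
  obtain ⟨m, hm⟩ := hPw a haC
  obtain ⟨n, hn⟩ := hPhw a haC
  have hlm : l ≠ m := by
    rintro rfl
    exact hasc (isSc_of_two_eig a.1 v w l hl hm hd)
  rcases eig_cases a.1 v w (h₀.1 *ᵥ w) l m n hl hm hn hlm hd with ⟨c, hc⟩ | ⟨c, hc⟩
  · have hpow : ∀ j : ℕ, (h₀ ^ (2 * j + 1)).1 *ᵥ v = c ^ j • w := by
      intro j
      induction j with
      | zero => rw [Nat.mul_zero, zero_add, pow_one, pow_zero, one_smul, hw]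
      | succ j ih =>
        have e : h₀ ^ (2 * (j + 1) + 1) = h₀ * h₀ * h₀ ^ (2 * j + 1) := by
          rw [show 2 * (j + 1) + 1 = (2 * j + 1) + 1 + 1 by ring, pow_succ', pow_succ', mul_assoc]
        rw [e, Units.val_mul, Units.val_mul, ← Matrix.mulVec_mulVec, ← Matrix.mulVec_mulVec, ih,
          Matrix.mulVec_smul, hc, Matrix.mulVec_smul, Matrix.mulVec_smul, ← hw, smul_smul,
          pow_succ]
    have hoo : Odd (orderOf h₀) := Odd.of_dvd_nat hodd (Subgroup.orderOf_dvd_natCard H hh₀)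
    obtain ⟨j, hj⟩ := hoo
    have h1 := hpow j
    rw [← hj, pow_orderOf_eq_one, Units.val_one, Matrix.one_mulVec] at h1
    apply hd
    rw [h1]
    simp only [Pi.smul_apply, smul_eq_mul]
    ring
  · have h3 : h₀.1 *ᵥ (c • v - w) = 0 := by
      rw [Matrix.mulVec_sub, Matrix.mulVec_smul, ← hw, hc, sub_self]
    have h4 := mulVec_inj h₀ _ h3
    exact hne c (by rw [← hw]; exact (sub_eq_zero.mp h4).symm)

theorem comm_entries (a c : Matrix (Fin 2) (Fin 2) K) (h10 : a 1 0 ≠ 0) (hc : c * a = a * c) :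
    c 0 1 = c 1 0 / a 1 0 * a 0 1 ∧
      c 1 1 = c 0 0 - c 1 0 / a 1 0 * a 0 0 + c 1 0 / a 1 0 * a 1 1 := by
  have e00 := congrFun (congrFun hc 0) 0
  have e10 := congrFun (congrFun hc 1) 0
  rw [mul00, mul00] at e00
  rw [mul10, mul10] at e10
  constructor
  · field_simp
    linear_combination e00
  · field_simp
    linear_combination e10

end Cfsg.Agent.Lib.Helper27.OddGL2
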