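import Mathlib
import Cfsg.Agent.Lib.Helper27.OddGL2A
import Cfsg.Agent.Lib.Helper27.OddGL2B

set_option autoImplicit false

/-! Odd-order solvable subgroups of `GL₂(K)`: the irreducible case and the main induction. -/

namespace Cfsg.Agent.Lib.Helper27.OddGL2

open Matrix
open scoped commutatorElement

variable {K : Type*} [Field K]

theorem comm_of_irr (h2 : (2 : K) ≠ 0) (H C : Subgroup (GL (Fin 2) K)) (hodd : Odd (Nat.card H))
    (hCnorm : ∀ h ∈ H, ∀ k ∈ C, h * k * h⁻¹ ∈ C) (hCcomm : ∀ x ∈ C, ∀ y ∈ C, x * y = y * x)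
    (hnofix : ¬ FixL C) : ∀ x ∈ H, ∀ y ∈ H, x * y = y * x := by
  have hex : ∃ a ∈ C, ¬ IsSc a.1 := by
    by_contra hcon
    push Not at hcon
    apply hnofix
    refine ⟨![1, 0], ?_, ?_⟩
    · intro h
      have h' := congrFun h 0
      rw [vec2_0] at h'
      exact one_ne_zero h'
    · intro k hk
      obtain ⟨s01, s10, s00⟩ := hcon k hk
      refine ⟨k.1 0 0, ?_⟩
      rw [eig_iff, vec2_0, vec2_1, s10]
      refine ⟨by ring, by ring⟩
  obtain ⟨a, haC, hasc⟩ := hex
  have hnoeig : ∀ v : Fin 2 → K, v ≠ 0 → ∀ l : K, a.1 *ᵥ v ≠ l • v := by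
    intro v hv l hl
    apply hnofix
    refine ⟨v, hv, ?_⟩
    intro k hk
    have hk2 : a.1 *ᵥ (k.1 *ᵥ v) = l • (k.1 *ᵥ v) := by
      rw [Matrix.mulVec_mulVec, ← Units.val_mul, hCcomm a haC k hk, Units.val_mul,
        ← Matrix.mulVec_mulVec, hl, Matrix.mulVec_smul]
    by_contra hno
    push Not at hno
    have hd : v 0 * (k.1 *ᵥ v) 1 - v 1 * (k.1 *ᵥ v) 0 ≠ 0 := by
      intro h
      obtain ⟨c, hc⟩ := prop_of_det_zero hv h
      exact hno c hc
    exact hasc (isSc_of_two_eig a.1 v _ l hl hk2 hd)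
  have ha10 : a.1 1 0 ≠ 0 := by
    intro h
    apply hnoeig ![1, 0] ?_ (a.1 0 0)
    · rw [eig_iff, vec2_0, vec2_1, h]
      refine ⟨by ring, by ring⟩
    · intro h'
      have h'' := congrFun h' 0
      rw [vec2_0] at h''
      exact one_ne_zero h''
  obtain ⟨t, ht⟩ : ∃ t : K, t = a.1 0 0 + a.1 1 1 := ⟨_, rfl⟩
  obtain ⟨d, hd⟩ : ∃ d : K, d = a.1 0 0 * a.1 1 1 - a.1 0 1 * a.1 1 0 := ⟨_, rfl⟩
  have hdisc : t ^ 2 - 4 * d ≠ 0 := by
    intro h
    rw [ht, hd] at h
    apply hnoeig ![a.1 0 0 - a.1 1 1, 2 * a.1 1 0] ?_ ((a.1 0 0 + a.1 1 1) / 2)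
    · rw [eig_iff, vec2_0, vec2_1]
      refine ⟨?_, ?_⟩
      · have e : 2 * (a.1 0 0 * (a.1 0 0 - a.1 1 1) + a.1 0 1 * (2 * a.1 1 0) -
            (a.1 0 0 + a.1 1 1) / 2 * (a.1 0 0 - a.1 1 1)) = 0 := by
          field_simp
          linear_combination h
        exact sub_eq_zero.mp ((mul_eq_zero.mp e).resolve_left h2)
      · field_simp
        ring
    · intro h'
      have h'' := congrFun h' 1
      rw [vec2_1] at h''
      rcases mul_eq_zero.mp h'' with h3 | h3
      · exact h2 h3
      · exact ha10 h3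
  have hcomm_a : ∀ h ∈ H, h * a = a * h := by
    intro h hh
    obtain ⟨c, hc⟩ : ∃ c, c = h * a * h⁻¹ := ⟨_, rfl⟩
    have hcC : c ∈ C := by rw [hc]; exact hCnorm h hh a haC
    have hca : c.1 * a.1 = a.1 * c.1 := by
      rw [← Units.val_mul, ← Units.val_mul, hCcomm c hcC a haC]
    obtain ⟨e01, e11⟩ := comm_entries a.1 c.1 ha10 hca
    obtain ⟨y, hy⟩ : ∃ y : K, y = c.1 1 0 / a.1 1 0 := ⟨_, rfl⟩
    obtain ⟨x, hx⟩ : ∃ x : K, x = c.1 0 0 - y * a.1 0 0 := ⟨_, rfl⟩
    rw [← hy] at e01 e11
    have e00 : c.1 0 0 = x + y * a.1 0 0 := by rw [hx]; ring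
    have e10 : c.1 1 0 = y * a.1 1 0 := by rw [hy]; field_simp
    have e11' : c.1 1 1 = x + y * a.1 1 1 := by rw [e11, hx]
    have htr : c.1 0 0 + c.1 1 1 = a.1 0 0 + a.1 1 1 := by
      have h3 := Matrix.trace_units_conj h a.1
      rw [Matrix.trace_fin_two, Matrix.trace_fin_two] at h3
      rw [hc, Units.val_mul, Units.val_mul]
      exact h3
    have hdt : c.1 0 0 * c.1 1 1 - c.1 0 1 * c.1 1 0 =
        a.1 0 0 * a.1 1 1 - a.1 0 1 * a.1 1 0 := by
      have h3 := Matrix.det_units_conj h a.1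
      rw [Matrix.det_fin_two, Matrix.det_fin_two] at h3
      rw [hc, Units.val_mul, Units.val_mul]
      exact h3
    rw [e00, e11', e01, e10] at hdt
    rw [e00, e11'] at htr
    have k1 : 2 * x + y * t = t := by rw [ht]; linear_combination htr
    have k2 : x ^ 2 + x * y * t + y ^ 2 * d = d := by rw [ht, hd]; linear_combination hdt
    have k3 : (1 - y ^ 2) * (t ^ 2 - 4 * d) = 0 := by
      linear_combination 4 * k2 - (2 * x + y * t + t) * k1
    have k4 : (1 - y) * (1 + y) = 0 := by
      have h3 := (mul_eq_zero.mp k3).resolve_right hdisc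
      linear_combination h3
    rcases mul_eq_zero.mp k4 with hy1 | hy1
    · have hy1' : y = 1 := by linear_combination -hy1
      have hx0 : x = 0 := by
        rw [hy1'] at k1
        have h3 : 2 * x = 0 := by linear_combination k1
        exact (mul_eq_zero.mp h3).resolve_left h2
      have hca' : c = a := by
        apply Units.ext
        apply mat_ext
        · rw [e00, hx0, hy1']; ring
        · rw [e01, hy1']; ring
        · rw [e10, hy1']; ring
        · rw [e11', hx0, hy1']; ring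
      rw [hc] at hca'
      calc h * a = h * a * h⁻¹ * h := by group
        _ = a * h := by rw [hca']
    · exfalso
      have hy1' : y = -1 := by linear_combination hy1
      have hxt : x = t := by
        rw [hy1'] at k1
        have h3 : 2 * (x - t) = 0 := by linear_combination k1
        exact sub_eq_zero.mp ((mul_eq_zero.mp h3).resolve_left h2)
      have hcm : c.1 = t • (1 : Matrix (Fin 2) (Fin 2) K) - a.1 := by
        apply mat_ext
        · rw [e00, hxt, hy1', Matrix.sub_apply, Matrix.smul_apply, Matrix.one_apply_eq,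
            smul_eq_mul, ht]; ring
        · rw [e01, hy1', Matrix.sub_apply, Matrix.smul_apply,
            Matrix.one_apply_ne (show (0 : Fin 2) ≠ 1 by decide), smul_zero]; ring
        · rw [e10, hy1', Matrix.sub_apply, Matrix.smul_apply,
            Matrix.one_apply_ne (show (1 : Fin 2) ≠ 0 by decide), smul_zero]; ring
        · rw [e11', hxt, hy1', Matrix.sub_apply, Matrix.smul_apply, Matrix.one_apply_eq,
            smul_eq_mul, ht]; ring
      have hconj : h * c * h⁻¹ = a := by
        apply Units.ext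
        have e1 : (h * c * h⁻¹).1 = h.1 * c.1 * h⁻¹.1 := by rw [Units.val_mul, Units.val_mul]
        have e2 : h.1 * a.1 * h⁻¹.1 = c.1 := by rw [hc, Units.val_mul, Units.val_mul]
        have e3 : h.1 * h⁻¹.1 = 1 := by rw [← Units.val_mul, mul_inv_cancel, Units.val_one]
        rw [e1]
        nth_rewrite 1 [hcm]
        rw [Matrix.mul_sub, Matrix.sub_mul, Matrix.mul_smul, Matrix.smul_mul, Matrix.mul_one, e3,
          e2, hcm]
        abel
      have hsq : h * h * a = a * (h * h) := by
        rw [hc] at hconj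
        have e6 : h * h * a = h * (h * a * h⁻¹) * h⁻¹ * (h * h) := by group
        rw [e6, hconj]
      have hoo : Odd (orderOf h) := Odd.of_dvd_nat hodd (Subgroup.orderOf_dvd_natCard H hh)
      obtain ⟨j, hj⟩ := hoo
      have hpow : (h * h) ^ (j + 1) = h := by
        rw [← pow_two, ← pow_mul, show 2 * (j + 1) = (2 * j + 1) + 1 by ring, ← hj, pow_succ,
          pow_orderOf_eq_one, one_mul]
      have hcm2 : Commute (h * h) a := hsq
      have hcm3 : Commute h a := by
        have h3 := hcm2.pow_left (j + 1)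
        rw [hpow] at h3
        exact h3
      have hca' : c = a := by
        rw [hc]
        calc h * a * h⁻¹ = a * h * h⁻¹ := by rw [hcm3.eq]
          _ = a := by group
      have h5 : c.1 1 0 = a.1 1 0 := by rw [hca']
      rw [e10, hy1'] at h5
      have h6 : 2 * a.1 1 0 = 0 := by linear_combination -h5
      exact ha10 ((mul_eq_zero.mp h6).resolve_left h2)
  intro x hx y hy
  have hxa := hcomm_a x hx
  have hya := hcomm_a y hy
  have hxa' : x.1 * a.1 = a.1 * x.1 := by rw [← Units.val_mul, ← Units.val_mul, hxa]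
  have hya' : y.1 * a.1 = a.1 * y.1 := by rw [← Units.val_mul, ← Units.val_mul, hya]
  obtain ⟨x01, x11⟩ := comm_entries a.1 x.1 ha10 hxa'
  obtain ⟨y01, y11⟩ := comm_entries a.1 y.1 ha10 hya'
  apply Units.ext
  rw [Units.val_mul, Units.val_mul]
  apply mat_ext
  · rw [mul00, mul00, x01, y01]; ring
  · rw [mul01, mul01, x01, y01, x11, y11]; ring
  · rw [mul10, mul10, x11, y11]; ring
  · rw [mul11, mul11, x01, y01, x11, y11]; ring

theorem fix_or_comm (h2 : (2 : K) ≠ 0) : ∀ (n : ℕ) (H : Subgroup (GL (Fin 2) K)),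
    Nat.card H = n → Odd n → Group.IsSolvable H →
      FixL H ∨ (∀ x ∈ H, ∀ y ∈ H, x * y = y * x) := by
  intro n
  induction n using Nat.strong_induction_on with
  | _ n ih =>
  intro H hn hodd hsol
  haveI : Finite H := Nat.finite_of_card_ne_zero (by rw [hn]; exact (Odd.pos hodd).ne')
  have hoddH : Odd (Nat.card H) := by rw [hn]; exact hodd
  by_cases hbot : H = ⊥
  · right
    intro x hx y hy
    rw [hbot, Subgroup.mem_bot] at hx hy
    rw [hx, hy]
  obtain ⟨C, hC⟩ : ∃ C : Subgroup (GL (Fin 2) K), C = ⁅H, H⁆ := ⟨_, rfl⟩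
  have hCH : C ≤ H := by
    rw [hC, Subgroup.commutator_le]
    intro x hx y hy
    rw [commutatorElement_def]
    exact H.mul_mem (H.mul_mem (H.mul_mem hx hy) (H.inv_mem hx)) (H.inv_mem hy)
  have hCne : C ≠ H := by
    intro heq
    haveI : Nontrivial H := (Subgroup.nontrivial_iff_ne_bot H).mpr hbot
    haveI := hsol
    have h1 := Group.IsSolvable.commutator_lt_top_of_nontrivial H
    apply h1.ne
    apply Subgroup.map_injective H.subtype_injective
    rw [Subgroup.map_subtype_commutator, ← hC, heq, ← MonoidHom.range_eq_map, Subgroup.range_subtype]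
  have hlt : Nat.card C < Nat.card H := by
    by_contra hcon
    push Not at hcon
    exact hCne (Subgroup.eq_of_le_of_card_ge hCH hcon)
  have hCodd : Odd (Nat.card C) := Odd.of_dvd_nat hoddH (Subgroup.card_dvd_of_le hCH)
  have hCsol : Group.IsSolvable C := by
    haveI := hsol
    exact Group.isSolvable_of_isSolvable_injective (Subgroup.inclusion_injective hCH)
  have hCnorm : ∀ h ∈ H, ∀ k ∈ C, h * k * h⁻¹ ∈ C := by
    intro h hh k hk
    have e : h * k * h⁻¹ = ⁅h, k⁆ * k := by rw [commutatorElement_def]; group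
    rw [e]
    exact C.mul_mem (by rw [hC]; exact Subgroup.commutator_mem_commutator hh (hCH hk)) hk
  by_cases hfixC : FixL C
  · obtain ⟨v, hv, hfv⟩ := hfixC
    by_cases hsc : ∀ k ∈ C, IsSc k.1
    · right
      exact comm_of_sc h2 H hoddH (by rw [← hC]; exact hsc)
    · left
      push Not at hsc
      obtain ⟨a, haC, hasc⟩ := hsc
      exact fix_of_nonsc H C hoddH hCnorm v hv hfv a haC hasc
  · right
    rcases ih (Nat.card C) (by rw [← hn]; exact hlt) C rfl hCodd hCsol with h3 | h3
    · exact absurd h3 hfixC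
    · exact comm_of_irr h2 H C hoddH hCnorm h3 hfixC

/-- the derived subgroup of an odd-order solvable subgroup of `GL₂(K)`, `K` of odd
characteristic `p`, has exponent `p` -/
theorem comm_exp (p : ℕ) [Fact p.Prime] [CharP K p] (hp : p ≠ 2) (H : Subgroup (GL (Fin 2) K))
    (hodd : Odd (Nat.card H)) (hsol : Group.IsSolvable H) : ∀ z ∈ ⁅H, H⁆, z ^ p = 1 := by
  have h2 : (2 : K) ≠ 0 := by
    intro h
    have h3 : ((2 : ℕ) : K) = 0 := by exact_mod_cast h
    rw [CharP.cast_eq_zero_iff K p] at h3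
    exact hp ((Nat.prime_dvd_prime_iff_eq (Fact.out : p.Prime) Nat.prime_two).mp h3)
  rcases fix_or_comm h2 (Nat.card H) H rfl hodd hsol with h3 | h3
  · exact comm_exp_of_fixL p H h3
  · intro z hz
    have hle : ⁅H, H⁆ ≤ ⊥ := by
      rw [Subgroup.commutator_le]
      intro x hx y hy
      rw [Subgroup.mem_bot, commutatorElement_eq_one_iff_mul_comm]
      exact h3 x hx y hy
    rw [Subgroup.mem_bot.mp (hle hz), one_pow]

end Cfsg.Agent.Lib.Helper27.OddGL2
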