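import Mathlib
import Cfsg.Agent.Lib.Helper27.OddGL2C

set_option autoImplicit false

/-! Odd-order solvable groups acting on elementary abelian groups of order at most `p²`:
the elements of the derived subgroup of order prime to `p` act trivially. Also: restriction of
an action to an invariant subgroup, and the induced action on a quotient. -/

namespace Cfsg.Agent.Lib.Helper27.OddGL2

open Matrix
open scoped commutatorElement

theorem exists_embed (p : ℕ) [Fact p.Prime] (V : Type*) [CommGroup V] [Finite V]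
    (hexp : ∀ x : V, x ^ p = 1) (hcard : Nat.card V = p ^ 2) :
    ∃ Θ : MulAut V →* GL (Fin 2) (ZMod p), Function.Injective Θ := by
  letI inst : Module (ZMod p) (Additive V) := AddCommGroup.zmodModule (n := p) (fun x => by
    rw [← ofMul_toMul x, ← ofMul_pow, hexp]; rfl)
  haveI : Finite (Additive V) := inferInstanceAs (Finite V)
  have hfin : Module.Finite (ZMod p) (Additive V) := Module.Finite.of_finite
  have hfree : Module.Free (ZMod p) (Additive V) :=
    @Module.Free.of_divisionRing (ZMod p) (Additive V) _ _ inst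
  have hfr : Module.finrank (ZMod p) (Additive V) = 2 := by
    have h := @Module.natCard_eq_pow_finrank (ZMod p) (Additive V) _ _ inst hfin
    rw [Nat.card_zmod] at h
    have h' : Nat.card (Additive V) = p ^ 2 := hcard
    rw [h'] at h
    exact (Nat.pow_right_injective (Fact.out : p.Prime).two_le h).symm
  let b := @Module.finBasisOfFinrankEq (ZMod p) (Additive V) _ _ inst hfree _ hfin 2 hfr
  let lin : MulAut V → (Additive V →ₗ[ZMod p] Additive V) := fun α =>
    @AddMonoidHom.toZModLinearMap p (Additive V) (Additive V) _ _ inst inst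
      (MonoidHom.toAdditive α.toMonoidHom)
  have hlin1 : lin 1 = LinearMap.id := by
    apply LinearMap.ext
    intro x
    rfl
  have hlinm : ∀ α β : MulAut V, lin (α * β) = lin α ∘ₗ lin β := by
    intro α β
    apply LinearMap.ext
    intro x
    rfl
  let Θ₀ : MulAut V →* Matrix (Fin 2) (Fin 2) (ZMod p) :=
    { toFun := fun α => LinearMap.toMatrix b b (lin α)
      map_one' := by
        show LinearMap.toMatrix b b (lin 1) = 1
        rw [hlin1, LinearMap.toMatrix_id]
      map_mul' := by
        intro α β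
        show LinearMap.toMatrix b b (lin (α * β)) =
          LinearMap.toMatrix b b (lin α) * LinearMap.toMatrix b b (lin β)
        rw [hlinm, LinearMap.toMatrix_comp b b b] }
  refine ⟨Θ₀.toHomUnits, ?_⟩
  intro α β h
  have h1 : Θ₀ α = Θ₀ β := by
    have h0 := congrArg Units.val h
    rw [MonoidHom.coe_toHomUnits, MonoidHom.coe_toHomUnits] at h0
    exact h0
  have h1' : LinearMap.toMatrix b b (lin α) = LinearMap.toMatrix b b (lin β) := h1
  have h2 : lin α = lin β :=
    calc lin α = Matrix.toLin b b (LinearMap.toMatrix b b (lin α)) :=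
          (Matrix.toLin_toMatrix b b (lin α)).symm
      _ = Matrix.toLin b b (LinearMap.toMatrix b b (lin β)) := by rw [h1']
      _ = lin β := Matrix.toLin_toMatrix b b (lin β)
  apply MulEquiv.ext
  intro x
  have h3 := LinearMap.congr_fun h2 (Additive.ofMul x)
  exact h3

theorem trivial_on_small (p : ℕ) [Fact p.Prime] (hp : p ≠ 2) {X : Type*} [Group X] [Finite X]
    (hodd : Odd (Nat.card X)) [Group.IsSolvable X] {V : Type*} [Group V] [Finite V]
    (hcomm : ∀ x y : V, x * y = y * x) (hexp : ∀ x : V, x ^ p = 1) (hcard : Nat.card V ≤ p ^ 2)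
    (ψ : X →* MulAut V) (a : X) (ha : a ∈ commutator X) (hco : (orderOf a).Coprime p) :
    ψ a = 1 := by
  have hpp : p.Prime := Fact.out
  have key : (ψ a) ^ p = 1 → ψ a = 1 := by
    intro h
    have h1 : orderOf (ψ a) ∣ p := orderOf_dvd_of_pow_eq_one h
    have h2 : orderOf (ψ a) ∣ orderOf a := orderOf_map_dvd ψ a
    have h3 := Nat.dvd_gcd h2 h1
    rw [Nat.Coprime.gcd_eq_one hco] at h3
    exact orderOf_eq_one_iff.mp (Nat.dvd_one.mp h3)
  have hVp : IsPGroup p V := fun x => ⟨1, by rw [pow_one]; exact hexp x⟩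
  obtain ⟨k, hk⟩ := IsPGroup.iff_card.mp hVp
  have hk2 : k ≤ 2 := by
    rw [hk] at hcard
    exact (Nat.pow_le_pow_iff_right hpp.one_lt).mp hcard
  have hker : (∀ x y : X, ψ x * ψ y = ψ y * ψ x) → ψ a = 1 := by
    intro hc
    have hle : commutator X ≤ ψ.ker := by
      rw [commutator_def, Subgroup.commutator_le]
      intro x _ y _
      rw [MonoidHom.mem_ker, map_commutatorElement, commutatorElement_eq_one_iff_mul_comm]
      exact hc x y
    exact MonoidHom.mem_ker.mp (hle ha)
  interval_cases k
  · -- trivial group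
    rw [pow_zero] at hk
    haveI : Subsingleton V := (Nat.card_eq_one_iff_unique.mp hk).1
    apply MulEquiv.ext
    intro x
    exact Subsingleton.elim _ _
  · -- cyclic group
    rw [pow_one] at hk
    haveI : IsCyclic V := isCyclic_of_prime_card hk
    obtain ⟨g, hg⟩ := IsCyclic.exists_generator (α := V)
    apply hker
    intro x y
    apply MulEquiv.ext
    intro v
    obtain ⟨n, rfl⟩ := Subgroup.mem_zpowers_iff.mp (hg v)
    obtain ⟨i, hi⟩ := Subgroup.mem_zpowers_iff.mp (hg (ψ x g))
    obtain ⟨j, hj⟩ := Subgroup.mem_zpowers_iff.mp (hg (ψ y g))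
    have e1 : ψ x (ψ y (g ^ n)) = g ^ (i * j * n) := by
      rw [map_zpow, map_zpow, ← hj, map_zpow, ← hi, ← _root_.zpow_mul, ← _root_.zpow_mul,
        mul_assoc]
    have e2 : ψ y (ψ x (g ^ n)) = g ^ (j * i * n) := by
      rw [map_zpow, map_zpow, ← hi, map_zpow, ← hj, ← _root_.zpow_mul, ← _root_.zpow_mul,
        mul_assoc]
    rw [MulAut.mul_apply, MulAut.mul_apply, e1, e2, mul_comm i j]
  · -- order p²
    letI : CommGroup V := { (inferInstance : Group V) with mul_comm := hcomm }
    obtain ⟨Θ, hΘ⟩ := exists_embed p V hexp hk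
    obtain ⟨f, hf⟩ : ∃ f : X →* GL (Fin 2) (ZMod p), f = Θ.comp ψ := ⟨_, rfl⟩
    have hoddR : Odd (Nat.card f.range) := Odd.of_dvd_nat hodd (Subgroup.card_range_dvd f)
    have hsolR : Group.IsSolvable f.range :=
      Group.isSolvable_of_surjective (f := f.rangeRestrict) f.rangeRestrict_surjective
    have hmem : f a ∈ ⁅f.range, f.range⁆ := by
      have h1 : f a ∈ (commutator X).map f := Subgroup.mem_map_of_mem f ha
      rw [commutator_def, Subgroup.map_commutator, ← MonoidHom.range_eq_map] at h1
      exact h1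
    have h2 := comm_exp p hp f.range hoddR hsolR (f a) hmem
    apply key
    apply hΘ
    rw [map_pow, map_one]
    rw [hf] at h2
    exact h2

theorem exists_res {X P : Type*} [Group X] [Group P] (φ : X →* MulAut P) (Z : Subgroup P)
    (hZ : ∀ x : X, ∀ z ∈ Z, φ x z ∈ Z) :
    ∃ ψ : X →* MulAut Z, ∀ (x : X) (z : Z), ((ψ x z : Z) : P) = φ x z := by
  have hinv : ∀ (x : X) (z : P), φ x⁻¹ (φ x z) = z := by
    intro x z
    rw [← MulAut.mul_apply, ← map_mul, inv_mul_cancel, map_one, MulAut.one_apply]
  have hinv' : ∀ (x : X) (z : P), φ x (φ x⁻¹ z) = z := by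
    intro x z
    rw [← MulAut.mul_apply, ← map_mul, mul_inv_cancel, map_one, MulAut.one_apply]
  refine ⟨MonoidHom.mk' (fun x =>
    { toFun := fun z => ⟨φ x z, hZ x z z.2⟩
      invFun := fun z => ⟨φ x⁻¹ z, hZ x⁻¹ z z.2⟩
      left_inv := fun z => Subtype.ext (hinv x z)
      right_inv := fun z => Subtype.ext (hinv' x z)
      map_mul' := fun z w => Subtype.ext (map_mul (φ x) (z : P) (w : P)) }) ?_, fun x z => rfl⟩
  intro x y
  apply MulEquiv.ext
  intro z
  apply Subtype.ext
  show φ (x * y) z = φ x (φ y z)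
  rw [map_mul, MulAut.mul_apply]

theorem exists_quot {X D : Type*} [Group X] [Group D] (ρ : X →* MulAut D) (N : Subgroup D)
    [N.Normal] (hN : ∀ x : X, ∀ n ∈ N, ρ x n ∈ N) :
    ∃ ψ : X →* MulAut (D ⧸ N), ∀ (x : X) (d : D), ψ x (d : D ⧸ N) = ((ρ x d : D) : D ⧸ N) := by
  have hinv' : ∀ (x : X) (z : D), ρ x (ρ x⁻¹ z) = z := by
    intro x z
    rw [← MulAut.mul_apply, ← map_mul, mul_inv_cancel, map_one, MulAut.one_apply]
  have he : ∀ x : X, N.map ((ρ x : D ≃* D) : D →* D) = N := by
    intro x
    apply le_antisymm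
    · rintro n ⟨m, hm, rfl⟩
      exact hN x m hm
    · intro n hn
      exact ⟨ρ x⁻¹ n, hN x⁻¹ n hn, hinv' x n⟩
  refine ⟨MonoidHom.mk' (fun x => QuotientGroup.congr N N (ρ x) (he x)) ?_, fun x d => ?_⟩
  · intro x y
    apply MulEquiv.ext
    intro q
    induction q using QuotientGroup.induction_on with
    | H d =>
      rw [MulAut.mul_apply, QuotientGroup.congr_mk, QuotientGroup.congr_mk, QuotientGroup.congr_mk,
        map_mul, MulAut.mul_apply]
  · exact QuotientGroup.congr_mk N N (ρ x) (he x) d

end Cfsg.Agent.Lib.Helper27.OddGL2
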