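import Mathlib
import Cfsg.Agent.Lib.Helper12.SmallExp

set_option autoImplicit false

/-! Class two subgroups with cyclic centre inside a finite `p`-group: counting centralizers. -/

namespace Cfsg.Agent.Lib.Helper27.PHall

open scoped commutatorElement

/-- In a cyclic group, every solution of `x ^ p = 1` is a power of a given nontrivial solution. -/
theorem cyc_unique {X : Type*} [Group X] [Finite X] [IsCyclic X] {p : ℕ} [hp : Fact p.Prime] (a b : X)
    (ha : a ^ p = 1) (hb : b ^ p = 1) (hb1 : b ≠ 1) : a ∈ Subgroup.zpowers b := by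
  classical
  have : Fintype X := Fintype.ofFinite X
  have hle := IsCyclic.card_pow_eq_one_le (α := X) hp.out.pos
  have hob : orderOf b = p := orderOf_eq_prime hb hb1
  have hsub : ((Subgroup.zpowers b : Set X).toFinset) ⊆ Finset.univ.filter (fun a : X => a ^ p = 1) := by
    intro x hx
    rw [Set.mem_toFinset] at hx
    rw [Finset.mem_filter]
    refine ⟨Finset.mem_univ _, ?_⟩
    obtain ⟨i, rfl⟩ := Subgroup.mem_zpowers_iff.1 hx
    rw [← zpow_natCast, ← zpow_mul, mul_comm, zpow_mul, zpow_natCast, hb, one_zpow]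
  have hcard : ((Subgroup.zpowers b : Set X).toFinset).card = p := by
    rw [Set.toFinset_card, ← Nat.card_eq_fintype_card]
    exact (Nat.card_zpowers b).trans hob
  have heq := Finset.eq_of_subset_of_card_le hsub (by rw [hcard]; exact hle)
  have : a ∈ ((Subgroup.zpowers b : Set X).toFinset) := by
    rw [heq, Finset.mem_filter]
    exact ⟨Finset.mem_univ _, ha⟩
  simpa using this

/-- For an element `g` of a `p`-group, a power `g ^ k` is a power of `g ^ p` or generates `g`. -/
theorem pow_dichotomy {P : Type*} [Group P] {p : ℕ} [hp : Fact p.Prime] (hP : IsPGroup p P) (g : P) (k : ℕ) :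
    (∃ j : ℕ, g ^ k = (g ^ p) ^ j) ∨ g ∈ Subgroup.zpowers (g ^ k) := by
  by_cases hk : p ∣ k
  · obtain ⟨j, rfl⟩ := hk
    exact Or.inl ⟨j, by rw [pow_mul]⟩
  · right
    obtain ⟨n, hn⟩ := hP g
    obtain ⟨m, -, hm⟩ := (Nat.dvd_prime_pow hp.out).1 (orderOf_dvd_of_pow_eq_one hn)
    have hcop : Nat.Coprime k (orderOf g) := by
      rw [hm]
      exact Nat.Coprime.pow_right _ ((Nat.Prime.coprime_iff_not_dvd hp.out).2 hk).symm
    by_cases h1 : orderOf g = 1
    · rw [orderOf_eq_one_iff] at h1
      rw [h1]; exact Subgroup.one_mem _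
    · have hpos : 0 < orderOf g := by rw [hm]; exact pow_pos hp.out.pos _
      obtain ⟨j, -, hj⟩ := Nat.exists_mul_mod_eq_one_of_coprime hcop (by omega)
      have : (g ^ k) ^ j = g := by
        rw [← pow_mul, ← pow_mod_orderOf, hj, pow_one]
      have hm := Subgroup.pow_mem _ (Subgroup.mem_zpowers (g ^ k)) j
      rwa [this] at hm

/-- A subgroup `C` of class at most two over `Z`, with `C / Z` of exponent `p`. -/
structure Cl2 {P : Type*} [Group P] (p : ℕ) (C Z : Subgroup P) : Prop where
  le : Z ≤ C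
  cen : ∀ u ∈ Z, ∀ c ∈ C, u * c = c * u
  self : ∀ x ∈ C, (∀ c ∈ C, x * c = c * x) → x ∈ Z
  comm : ∀ c ∈ C, ∀ d ∈ C, ⁅c, d⁆ ∈ Z
  pow : ∀ c ∈ C, c ^ p ∈ Z

theorem Cl2.comm_pow {P : Type*} [Group P] {p : ℕ} {C Z : Subgroup P} (h : Cl2 p C Z)
    {c d : P} (hc : c ∈ C) (hd : d ∈ C) : ⁅c, d⁆ ^ p = 1 := by
  have h1 : Commute ⁅c, d⁆ c := h.cen _ (h.comm c hc d hd) c hc
  rw [← Cfsg.Agent.Lib.Helper12.SmallExp.comm_pow_left c d h1 p, commutatorElement_eq_one_iff_commute]
  exact h.cen _ (h.pow c hc) d hd

theorem Cl2.comm_mul {P : Type*} [Group P] {p : ℕ} {C Z : Subgroup P} (h : Cl2 p C Z)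
    {x d d' : P} (hx : x ∈ C) (hd : d ∈ C) (hd' : d' ∈ C) : ⁅x, d * d'⁆ = ⁅x, d⁆ * ⁅x, d'⁆ := by
  have h1 : ⁅x, d'⁆ * d = d * ⁅x, d'⁆ := h.cen _ (h.comm x hx d' hd') d hd
  have e : ⁅x, d * d'⁆ = ⁅x, d⁆ * (d * ⁅x, d'⁆ * d⁻¹) := by
    simp only [commutatorElement_def]; group
  rw [e, ← h1, mul_inv_cancel_right]

/-- Counting centralizers: for `Z ≤ U ≤ C`, `|C| |Z| ≤ |U| |C_C(U)|`. -/
theorem Cl2.count {P : Type*} [Group P] [Finite P] {p : ℕ} [hp : Fact p.Prime] (hP : IsPGroup p P)
    {C Z : Subgroup P} (h : Cl2 p C Z) (hZ : IsCyclic ↥Z) :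
    ∀ (n : ℕ) (U : Subgroup P), Nat.card ↥U ≤ n → Z ≤ U → U ≤ C →
      Nat.card ↥C * Nat.card ↥Z ≤ Nat.card ↥U * Nat.card ↥(C ⊓ Subgroup.centralizer (U : Set P)) := by
  classical
  intro n
  induction n with
  | zero =>
    intro U hU _ _
    have : 0 < Nat.card ↥U := Nat.card_pos
    omega
  | succ n ih =>
    intro U hUn hZU hUC
    by_cases hUZ : U = Z
    · subst hUZ
      have : C ⊓ Subgroup.centralizer (U : Set P) = C := by
        apply inf_eq_left.2
        intro c hc
        rw [Subgroup.mem_centralizer_iff]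
        intro u hu
        exact h.cen u hu c hc
      rw [this, mul_comm]
    · -- maximal V with Z ≤ V < U
      obtain ⟨V, ⟨hZV, hVU⟩, hmax⟩ :=
        Set.Finite.exists_maximal (s := {V : Subgroup P | Z ≤ V ∧ V < U}) (Set.toFinite _)
          ⟨Z, le_refl _, lt_of_le_of_ne hZU (Ne.symm hUZ)⟩
      obtain ⟨x, hxU, hxV⟩ := SetLike.exists_of_lt hVU
      have hVx : V ⊔ Subgroup.zpowers x = U := by
        by_contra hne
        have hle : V ⊔ Subgroup.zpowers x ≤ U :=
          sup_le hVU.le (by rw [Subgroup.zpowers_le]; exact hxU)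
        have hmem : V ⊔ Subgroup.zpowers x ∈ {V : Subgroup P | Z ≤ V ∧ V < U} :=
          ⟨hZV.trans le_sup_left, lt_of_le_of_ne hle hne⟩
        have := hmax hmem le_sup_left
        exact hxV (this (Subgroup.mem_sup_right (Subgroup.mem_zpowers x)))
      have hcardVU : p * Nat.card ↥V ≤ Nat.card ↥U := by
        have hdvd : Nat.card ↥V ∣ Nat.card ↥U := Subgroup.card_dvd_of_le hVU.le
        obtain ⟨m, hm⟩ := hdvd
        have hlt : Nat.card ↥V < Nat.card ↥U := by
          rcases lt_or_eq_of_le (Subgroup.card_le_of_le hVU.le) with h' | h'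
          · exact h'
          · exact absurd (Subgroup.eq_of_le_of_card_ge hVU.le h'.ge) hVU.ne
        have hVpos : 0 < Nat.card ↥V := Nat.card_pos
        obtain ⟨a, ha⟩ := (IsPGroup.iff_card.1 (hP.to_subgroup U))
        have hm1 : m ≠ 1 := by
          rintro rfl
          rw [mul_one] at hm; omega
        have hmd : m ∣ p ^ a := ha ▸ Dvd.intro_left _ hm.symm
        obtain ⟨b, -, hb⟩ := (Nat.dvd_prime_pow hp.out).1 hmd
        have hb0 : b ≠ 0 := by
          rintro rfl
          exact hm1 (by rw [hb, pow_zero])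
        have hpm : p ≤ m := by
          rw [hb]
          calc p = p ^ 1 := (pow_one p).symm
            _ ≤ p ^ b := Nat.pow_le_pow_right hp.out.pos (by omega)
        rw [hm, mul_comm]
        exact Nat.mul_le_mul_left _ hpm
      have hVn : Nat.card ↥V ≤ n := by
        have h2 : 2 ≤ p := hp.out.two_le
        have hVpos : 0 < Nat.card ↥V := Nat.card_pos
        nlinarith
      have ihV := ih V hVn hZV (hVU.le.trans hUC)
      have hxC : x ∈ C := hUC hxU
      -- the commutator homomorphism on K_V
      let KV : Subgroup P := C ⊓ Subgroup.centralizer (V : Set P)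
      let φ : ↥KV →* ↥Z :=
        { toFun := fun d => ⟨⁅x, (d : P)⁆, h.comm x hxC d d.2.1⟩
          map_one' := by
            apply Subtype.ext
            simp
          map_mul' := by
            intro d d'
            apply Subtype.ext
            exact h.comm_mul hxC d.2.1 d'.2.1 }
      have hker : Nat.card ↥φ.ker ≤ Nat.card ↥(C ⊓ Subgroup.centralizer (U : Set P)) := by
        refine Nat.card_le_card_of_injective
          (fun d : ↥φ.ker => (⟨((d : ↥KV) : P), ?_⟩ : ↥(C ⊓ Subgroup.centralizer (U : Set P)))) ?_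
        · refine ⟨(d : ↥KV).2.1, ?_⟩
          have hd1 : ⁅x, ((d : ↥KV) : P)⁆ = 1 := by
            have := d.2
            rw [MonoidHom.mem_ker] at this
            exact congrArg Subtype.val this
          rw [commutatorElement_eq_one_iff_commute] at hd1
          have hsup : V ⊔ Subgroup.zpowers x ≤ Subgroup.centralizer ({((d : ↥KV) : P)} : Set P) := by
            refine sup_le ?_ ?_
            · intro y hy
              refine Subgroup.mem_centralizer_iff.2 ?_
              rintro _ rfl
              exact (Subgroup.mem_centralizer_iff.1 (d : ↥KV).2.2 y hy).symm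
            · rw [Subgroup.zpowers_le]
              refine Subgroup.mem_centralizer_iff.2 ?_
              rintro _ rfl
              exact hd1.eq.symm
          rw [← hVx]
          refine Subgroup.mem_centralizer_iff.2 ?_
          intro u hu
          exact (Subgroup.mem_centralizer_iff.1 (hsup hu) _ rfl).symm
        · intro d d' hdd
          apply Subtype.ext
          apply Subtype.ext
          exact congrArg (fun w : ↥(C ⊓ Subgroup.centralizer (U : Set P)) => (w : P)) hdd
      have hrange : Nat.card ↥φ.range ≤ p := by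
        have := hZ
        have : Fintype ↥Z := Fintype.ofFinite _
        have hle := IsCyclic.card_pow_eq_one_le (α := ↥Z) hp.out.pos
        have h1 : Nat.card ↥φ.range ≤ Nat.card {u : ↥Z // u ^ p = 1} := by
          refine Nat.card_le_card_of_injective
            (fun y : ↥φ.range => (⟨(y : ↥Z), ?_⟩ : {u : ↥Z // u ^ p = 1})) ?_
          · obtain ⟨d, hd⟩ := y.2
            rw [← hd]
            apply Subtype.ext
            exact h.comm_pow hxC d.2.1
          · intro y y' hyy
            apply Subtype.ext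
            exact congrArg (fun w : {u : ↥Z // u ^ p = 1} => (w : ↥Z)) hyy
        have h2 : Nat.card {u : ↥Z // u ^ p = 1} = (Finset.univ.filter (fun u : ↥Z => u ^ p = 1)).card := by
          rw [Nat.card_eq_fintype_card, Fintype.card_subtype]
        omega
      have hKV : Nat.card ↥KV = Nat.card ↥φ.ker * Nat.card ↥φ.range := by
        rw [← Subgroup.index_ker, Subgroup.card_mul_index]
      calc Nat.card ↥C * Nat.card ↥Z ≤ Nat.card ↥V * Nat.card ↥KV := ihV
        _ = Nat.card ↥V * (Nat.card ↥φ.ker * Nat.card ↥φ.range) := by rw [hKV]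
        _ ≤ Nat.card ↥V * (Nat.card ↥(C ⊓ Subgroup.centralizer (U : Set P)) * p) :=
            Nat.mul_le_mul_left _ (Nat.mul_le_mul hker hrange)
        _ = (p * Nat.card ↥V) * Nat.card ↥(C ⊓ Subgroup.centralizer (U : Set P)) := by ring
        _ ≤ Nat.card ↥U * Nat.card ↥(C ⊓ Subgroup.centralizer (U : Set P)) :=
            Nat.mul_le_mul_right _ hcardVU

end Cfsg.Agent.Lib.Helper27.PHall
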